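-- OTSP (S5973) package [SPREAD], sub-project of helper40: interface file.
-- The spread element of the plus form: N-part from a symplectic element via the
-- characteristic-free transfer Q(v) = ω(g v, v), embedding into a plus-type model, hyperbolic
-- normal form, transport.
import Mathlib
import Cfsg.Agent.Lib.Helper99.OTSP.Defs2

set_option autoImplicit false
open scoped MatrixGroups
open Matrix

namespace Cfsg.Agent.Lib.Helper40.OTSP

open Cfsg.Agent.Lib.Helper23.OHyp Cfsg.Agent.Lib.Helper99.OTSP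

universe u

/-- Standing data of the N-part: a quadratic form on `F^(2n)` with nondegenerate polar form and a
fixed-point-free isometry `g` with `g ^ r = 1`. -/
structure NData {F : Type u} [Field F] (n r : ℕ) (Qs : QuadraticForm F (Fin n ⊕ Fin n → F))
    (g : Matrix (Fin n ⊕ Fin n) (Fin n ⊕ Fin n) F) : Prop where
  nondeg : (QuadraticMap.polarBilin Qs).Nondegenerate
  isom : ∀ v, Qs (g *ᵥ v) = Qs v
  pow : g ^ r = 1
  fpf : ∀ v, g *ᵥ v = v → v = 0

/-- Conclusion of the embedding packages: a quadratic space `(F^κ, Q')` of dimension `2 d` with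
nondegenerate polar form and a totally singular `d`-space, an isometry `φ` with `φ ^ r = 1` whose
moved space `range (φ - 1)` has dimension `2 n`, such that every `φ`-invariant totally singular
subspace of the moved space comes with a `g`-invariant `Qs`-totally singular subspace of `F^(2n)`
of the same dimension. -/
def EmbOut {F : Type u} [Field F] (n r d : ℕ) (Qs : QuadraticForm F (Fin n ⊕ Fin n → F))
    (g : Matrix (Fin n ⊕ Fin n) (Fin n ⊕ Fin n) F) : Prop :=
  ∃ (κ : Type) (_ : Fintype κ) (_ : DecidableEq κ) (Q' : QuadraticForm F (κ → F))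
    (φ : Matrix κ κ F),
    Fintype.card κ = 2 * d ∧ (QuadraticMap.polarBilin Q').Nondegenerate ∧
    (∃ T : Submodule F (κ → F), (∀ w ∈ T, Q' w = 0) ∧ Module.finrank F T = d) ∧
    (∀ v, Q' (φ *ᵥ v) = Q' v) ∧ φ ^ r = 1 ∧
    Module.finrank F (LinearMap.range (Matrix.toLin' φ - 1)) = 2 * n ∧
    ∀ L' : Submodule F (κ → F), L' ≤ LinearMap.range (Matrix.toLin' φ - 1) →
      L'.map (Matrix.toLin' φ) ≤ L' → (∀ w ∈ L', Q' w = 0) →
      ∃ L : Submodule F (Fin n ⊕ Fin n → F), L.map (Matrix.toLin' g) ≤ L ∧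
        (∀ w ∈ L, Qs w = 0) ∧ Module.finrank F L = Module.finrank F L'

/-- [SPN] the N-part: `i = ordI q r` even, `j ≥ 1` blocks spread over the `t = (r - 1) / i`
types; invariant totally singular subspaces have dimension at most `i ((j + 1 - t) / 2)`. -/
def PkgSpN : Prop :=
  ∀ (F : Type u) [Field F] [Fintype F] (r j : ℕ), r.Prime → r ≠ 2 → ¬ r ∣ Fintype.card F →
    Even (ordI (Fintype.card F) r) → 1 ≤ j →
    ∃ (n : ℕ) (Qs : QuadraticForm F (Fin n ⊕ Fin n → F))
      (g : Matrix (Fin n ⊕ Fin n) (Fin n ⊕ Fin n) F),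
      2 * n = ordI (Fintype.card F) r * j ∧ NData n r Qs g ∧
      ∀ L : Submodule F (Fin n ⊕ Fin n → F), L.map (Matrix.toLin' g) ≤ L →
        (∀ w ∈ L, Qs w = 0) →
        Module.finrank F L ≤ ordI (Fintype.card F) r *
          ((j + 1 - (r - 1) / ordI (Fintype.card F) r) / 2)

/-- [QS] characteristic-free symplectic transfer: a fixed-point-free symplectic matrix of odd
order is an isometry of the quadratic form `v ↦ ω(g v, v)`, whose polar form
`(u, v) ↦ ω((g - g⁻¹) u, v)` is nondegenerate. -/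
def PkgQS : Prop :=
  ∀ (F : Type u) [Field F] (n r : ℕ) (g : Matrix (Fin n ⊕ Fin n) (Fin n ⊕ Fin n) F),
    g ∈ Matrix.symplecticGroup (Fin n) F → Odd r → g ^ r = 1 → (∀ v, g *ᵥ v = v → v = 0) →
    ∃ Qs : QuadraticForm F (Fin n ⊕ Fin n → F), NData n r Qs g

/-- [EMBP] the N-part is of plus type: add a hyperbolic space of dimension `2 c`. -/
def PkgEmbP : Prop :=
  ∀ (F : Type u) [Field F] [Fintype F] (n r c : ℕ)
    (Qs : QuadraticForm F (Fin n ⊕ Fin n → F)) (g : Matrix (Fin n ⊕ Fin n) (Fin n ⊕ Fin n) F),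
    NData n r Qs g →
    (∃ Ts : Submodule F (Fin n ⊕ Fin n → F), (∀ w ∈ Ts, Qs w = 0) ∧ Module.finrank F Ts = n) →
    EmbOut n r (n + c) Qs g

/-- [EMBM] the N-part is not of plus type: add the negative of its anisotropic plane and a
hyperbolic space of dimension `2 (c - 1)`. -/
def PkgEmbM : Prop :=
  ∀ (F : Type u) [Field F] [Fintype F] (n r c : ℕ)
    (Qs : QuadraticForm F (Fin n ⊕ Fin n → F)) (g : Matrix (Fin n ⊕ Fin n) (Fin n ⊕ Fin n) F),
    NData n r Qs g →
    (¬ ∃ Ts : Submodule F (Fin n ⊕ Fin n → F), (∀ w ∈ Ts, Qs w = 0) ∧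
      Module.finrank F Ts = n) →
    1 ≤ c → EmbOut n r (n + c) Qs g

/-- [TYPE0] an even number of blocks: the N-part is of plus type (from OTSP [TYPEW]). -/
def PkgType0 : Prop :=
  ∀ (F : Type u) [Field F] [Fintype F] (n r : ℕ)
    (Qs : QuadraticForm F (Fin n ⊕ Fin n → F)) (g : Matrix (Fin n ⊕ Fin n) (Fin n ⊕ Fin n) F),
    NData n r Qs g → r.Prime → r ≠ 2 → ¬ r ∣ Fintype.card F →
    Even (ordI (Fintype.card F) r) → Even (2 * n / ordI (Fintype.card F) r) →
    ∃ Ts : Submodule F (Fin n ⊕ Fin n → F), (∀ w ∈ Ts, Qs w = 0) ∧ Module.finrank F Ts = n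

/-- [HYP] a quadratic space of dimension `2 d` with nondegenerate polar form and a totally
singular `d`-space is isometric to the standard plus form. -/
def PkgHyp : Prop :=
  ∀ (F : Type u) [Field F] [Fintype F] (d : ℕ) (κ : Type) [Fintype κ] [DecidableEq κ]
    (Q' : QuadraticForm F (κ → F)), Fintype.card κ = 2 * d →
    (QuadraticMap.polarBilin Q').Nondegenerate →
    (∃ T : Submodule F (κ → F), (∀ w ∈ T, Q' w = 0) ∧ Module.finrank F T = d) →
    ∃ ψ : (κ → F) ≃ₗ[F] (Fin d ⊕ Fin d → F), ∀ u, Cfsg.quadFormPlus d F (ψ u) = Q' u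

/-- [TR] transport of an isometry along an isometric linear equivalence. -/
def PkgTr : Prop :=
  ∀ (F : Type u) [Field F] (r : ℕ) (κ : Type) [Fintype κ] [DecidableEq κ]
    (ι : Type) [Fintype ι] [DecidableEq ι] (Q' : (κ → F) → F) (Q₀ : (ι → F) → F)
    (ψ : (κ → F) ≃ₗ[F] (ι → F)) (φ : Matrix κ κ F),
    (∀ u, Q₀ (ψ u) = Q' u) → (∀ v, Q' (φ *ᵥ v) = Q' v) → 0 < r → φ ^ r = 1 →
    ∃ y : GL ι F, y ∈ Cfsg.isometryGroup F Q₀ ∧ y ^ r = 1 ∧
      Module.finrank F (movSp (y : Matrix ι ι F)) =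
        Module.finrank F (LinearMap.range (Matrix.toLin' φ - 1)) ∧
      ∀ L : Submodule F (ι → F), L ≤ movSp (y : Matrix ι ι F) → Inv (y : Matrix ι ι F) L →
        TS Q₀ L →
        ∃ L' : Submodule F (κ → F), L' ≤ LinearMap.range (Matrix.toLin' φ - 1) ∧
          L'.map (Matrix.toLin' φ) ≤ L' ∧ (∀ w ∈ L', Q' w = 0) ∧
          Module.finrank F L' = Module.finrank F L

end Cfsg.Agent.Lib.Helper40.OTSP
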