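-- OTSP (S5973) [SPREAD] sub-project, package [SPN] (helper40): the N-part of the spread element.
import Mathlib
import Cfsg.Agent.Lib.Helper40.OTSP.Defs
import Cfsg.Agent.Lib.Helper37.OTS.Flag
import Cfsg.Agent.Lib.Helper40.SpImprim

set_option autoImplicit false

namespace Cfsg.Agent.Lib.Helper40.OTSP

open Cfsg Polynomial Module Matrix
open Cfsg.Agent.Lib.Helper23.OHyp Cfsg.Agent.Lib.Helper99.OTSP
open Cfsg.Agent.Lib.Helper40 Cfsg.Agent.Lib.Helper40.PrimeOrderGL Cfsg.Agent.Lib.Helper40.DualPoly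

universe u

/-- The spread multiplicity vector. -/
theorem exists_spread {S : Type*} [Fintype S] [DecidableEq S] [Nonempty S] (j : ℕ) :
    ∃ a : S → ℕ, ∑ π, a π = j ∧
      ∀ a₁ : S → ℕ, (∀ π, 2 * a₁ π ≤ a π) → ∑ π, a₁ π ≤ (j + 1 - Fintype.card S) / 2 := by
  classical
  by_cases h : Fintype.card S ≤ j
  · obtain ⟨P₀⟩ := ‹Nonempty S›
    refine ⟨fun π => 1 + (if π = P₀ then j - Fintype.card S else 0), ?_, ?_⟩
    · rw [Finset.sum_add_distrib, Finset.sum_ite_eq' Finset.univ P₀, if_pos (Finset.mem_univ _),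
        Finset.sum_const, Finset.card_univ, smul_eq_mul, mul_one]
      omega
    · intro a₁ ha₁
      have h1 : ∑ π, a₁ π = a₁ P₀ := by
        apply Finset.sum_eq_single P₀
        · intro π _ hπ
          have := ha₁ π
          beta_reduce at this
          rw [if_neg hπ] at this
          omega
        · intro h'
          exact absurd (Finset.mem_univ _) h'
      rw [h1]
      have := ha₁ P₀
      beta_reduce at this
      rw [if_pos rfl] at this
      omega
  · obtain ⟨A, -, hA⟩ := Finset.exists_subset_card_eq (s := (Finset.univ : Finset S)) (n := j)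
      (by rw [Finset.card_univ]; omega)
    refine ⟨fun π => if π ∈ A then 1 else 0, ?_, ?_⟩
    · rw [Finset.sum_boole, Finset.filter_mem_eq_inter, Finset.univ_inter]
      simpa using hA
    · intro a₁ ha₁
      have h1 : ∑ π, a₁ π = 0 := by
        apply Finset.sum_eq_zero
        intro π _
        have := ha₁ π
        beta_reduce at this
        split_ifs at this <;> omega
      rw [h1]
      exact Nat.zero_le _

theorem pkgSpN_of (hQS : PkgQS.{u}) : PkgSpN.{u} := by
  intro F _ _ r j hr hr2 hrq hev hj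
  classical
  obtain ⟨p, hp⟩ := CharP.exists F
  have hprime : p.Prime := CharP.char_is_prime F p
  haveI : Fact p.Prime := ⟨hprime⟩
  haveI : Fact r.Prime := ⟨hr⟩
  have hrp : r ≠ p := by
    rintro rfl
    exact hrq (Elusive.char_dvd_card r)
  obtain ⟨i, hi⟩ : ∃ i, i = ordI (Fintype.card F) r := ⟨_, rfl⟩
  rw [← hi] at hev ⊢
  have hi' : i = orderOf ((Fintype.card F : ℕ) : ZMod r) := hi
  obtain ⟨S, dg, hS, hne, hdg, hdd, hdev, -⟩ :=
    SpImprim.exists_data (rfl : Fintype.card F = Fintype.card F) r hr2 hrp i hi'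
  have hrF : (r : F) ≠ 0 := Elusive.natCast_ne_zero_of_ne r hrp
  have hi0 : 0 < i := by
    rw [hi']
    exact Elusive.orderOf_pos_of_ne rfl r hrp
  have hcard := SpIso.card_factors (rfl : Fintype.card F = Fintype.card F) hrp hi' hS
  have ht : (r - 1) / i = Fintype.card S := by
    rw [← hcard, Nat.mul_div_cancel _ hi0, Fintype.card_coe]
  haveI : Nonempty S := hne.to_subtype
  obtain ⟨a, hasum, hab⟩ := exists_spread (S := ↥S) j
  obtain ⟨i₂, hi₂⟩ := hev
  have hid := hdev ⟨i₂, hi₂⟩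
  have ha : ∀ π, a (dg π) = a π := fun π => by rw [hid π]
  obtain ⟨g, hgr, hgχ⟩ := SpImprim.exists_sp_chi p hS hr hr2 dg hdg (i₂ * j) a ha
    (by rw [hasum, hi₂]; exact le_of_eq (by ring))
  have h0 : 2 * (i₂ * j) - i * ∑ π, a π = 0 := by
    rw [hasum, hi₂]
    have : 2 * (i₂ * j) = (i₂ + i₂) * j := by ring
    omega
  rw [h0] at hgχ
  have hfix0 := SpImprim.finrank_fix_of_chi hS hrF g.1 hgr a 0 hgχ
  have hfix : ∀ v : Fin (i₂ * j) ⊕ Fin (i₂ * j) → F, g.1 *ᵥ v = v → v = 0 := by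
    intro v hv
    have h1 : v ∈ SpImprim.fixS (Matrix.toLin' g.1) := by
      rw [SpImprim.mem_fixS, Matrix.toLin'_apply]
      exact hv
    rw [Submodule.finrank_eq_zero.1 hfix0] at h1
    exact (Submodule.mem_bot F).1 h1
  obtain ⟨Qs, hD⟩ := hQS F (i₂ * j) r g.1 g.2 (hr.odd_of_ne_two hr2) hgr hfix
  refine ⟨i₂ * j, Qs, g.1, by rw [hi₂]; ring, hD, ?_⟩
  intro L hinv hts
  obtain ⟨a₁, h1, h2, h3⟩ := Cfsg.Agent.Lib.Helper37.OTS.flagQ Qs hD.nondeg hS hrF dg hdg hdd g.1
    hD.isom hgr a 0 hgχ L (finrank F L) rfl hts hinv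
  have h4 : ∑ π, a₁ π ≤ (j + 1 - Fintype.card S) / 2 := by
    apply hab
    intro π
    have := h2 π
    rw [hid π] at this
    omega
  rw [ht]
  have h5 : finrank F L ≤ i * ∑ π, a₁ π := by omega
  exact h5.trans (Nat.mul_le_mul_left _ h4)

end Cfsg.Agent.Lib.Helper40.OTSP
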