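-- OTSP (S5973) [SPREAD] sub-project (helper40): assembly of PkgSpread from the sub-packages.
import Mathlib
import Cfsg.Agent.Lib.Helper40.OTSP.Defs

set_option autoImplicit false
open scoped MatrixGroups
open Matrix

namespace Cfsg.Agent.Lib.Helper40.OTSP

open Cfsg.Agent.Lib.Helper23.OHyp Cfsg.Agent.Lib.Helper99.OTSP

universe u

/-- Assembly of [SPREAD] from the sub-packages. -/
theorem spread_of (hN : PkgSpN.{u}) (hP : PkgEmbP.{u}) (hM : PkgEmbM.{u}) (hT0 : PkgType0.{u})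
    (hH : PkgHyp.{u}) (hTr : PkgTr.{u}) : PkgSpread.{u} := by
  intro F _ _ d r j hr hr2 hrq hev hj hle hfull
  obtain ⟨n, Qs, g, hn, hD, hbound⟩ := hN F r j hr hr2 hrq hev hj
  obtain ⟨c, rfl⟩ : ∃ c, d = n + c := ⟨d - n, by omega⟩
  have hemb : EmbOut n r (n + c) Qs g := by
    by_cases hplus : ∃ Ts : Submodule F (Fin n ⊕ Fin n → F), (∀ w ∈ Ts, Qs w = 0) ∧
        Module.finrank F Ts = n
    · exact hP F n r c Qs g hD hplus
    · by_cases hc : c = 0
      · exfalso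
        apply hplus
        apply hT0 F n r Qs g hD hr hr2 hrq hev
        rcases Nat.eq_zero_or_pos (ordI (Fintype.card F) r) with h | h
        · rw [h, Nat.div_zero]
          exact ⟨0, rfl⟩
        · rw [hn, Nat.mul_div_cancel_left _ h]
          apply hfull
          rw [← hn, hc]
          ring
      · exact hM F n r c Qs g hD hplus (by omega)
  obtain ⟨κ, hfin, hdec, Q', φ, hcard, hnd, hT, hφ, hφr, hrange, hL⟩ := hemb
  obtain ⟨ψ, hψ⟩ := hH F (n + c) κ Q' hcard hnd hT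
  obtain ⟨y, hyO, hyr, hymov, hyL⟩ := hTr F r κ (Fin (n + c) ⊕ Fin (n + c)) (⇑Q')
    (Cfsg.quadFormPlus (n + c) F) ψ φ hψ hφ hr.pos hφr
  refine ⟨y, hyO, hyr, ?_, ?_⟩
  · rw [hymov, hrange, hn]
  · intro L hLN hLinv hLts
    obtain ⟨L', h1, h2, h3, h4⟩ := hyL L hLN hLinv hLts
    obtain ⟨Ls, h5, h6, h7⟩ := hL L' h1 h2 h3
    rw [← h4, ← h7]
    exact hbound Ls h5 h6

end Cfsg.Agent.Lib.Helper40.OTSP
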